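import Mathlib
import Cfsg.Prelude.Def_JComponents
import Cfsg.Agent.Lib.Helper67.KS12.S2942Core

/-!
# Tools for S2945 (helper33)

* `odd_mem_of_isSubnormal`: if `H` is subnormal in `X`, `d ∈ H`, `x` is a 2-element and `d * x` has
  odd order, then `d * x ∈ H`.
* `pCoreOf_le_pCoreOf_sup`: `O₂(K) ≤ O₂(K ⊔ J)` when `K` is subnormal in `K ⊔ J`.
* elementary lemmas on automorphisms of a four-group.
-/

set_option autoImplicit false

namespace Cfsg.Agent.Lib.Helper33.KS12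

open Cfsg
open Cfsg.Agent.Lib.Helper71.JC (mem_of_pow_mem_coprime)
open Cfsg.Agent.Lib.Helper67.KS12 (pow_mul_inv_mem)

universe u
variable {G : Type u} [Group G]

/-- If `H` is subnormal in `X`, `d ∈ H`, `x` is a 2-element and `d * x` has odd order, then
`d * x ∈ H`. -/
theorem odd_mem_of_isSubnormal {X : Type u} [Group X] {H : Subgroup X} (hH : H.IsSubnormal) :
    ∀ d x : X, d ∈ H → (∃ n : ℕ, x ^ (2 ^ n) = 1) → Odd (orderOf (d * x)) → d * x ∈ H := by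
  induction hH with
  | top => intro d x _ _ _; exact Subgroup.mem_top _
  | step H K' hle hK' hN ih =>
    intro d x hd hx hodd
    obtain ⟨n, hn⟩ := hx
    have hg : d * x ∈ K' := ih d x (hle hd) ⟨n, hn⟩ hodd
    have hxK' : x ∈ K' := by
      have h1 : x = d⁻¹ * (d * x) := by group
      rw [h1]; exact K'.mul_mem (K'.inv_mem (hle hd)) hg
    have hK'N : K' ≤ Subgroup.normalizer (H : Set X) :=
      (Subgroup.normal_subgroupOf_iff_le_normalizer hle).mp hN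
    have h1 := pow_mul_inv_mem (hK'N hxK') hd (2 ^ n)
    rw [hn, inv_one, mul_one] at h1
    have h2 : (d * x) ^ orderOf (d * x) ∈ H := by
      rw [pow_orderOf_eq_one]; exact H.one_mem
    exact mem_of_pow_mem_coprime (Nat.Coprime.pow_left n (Nat.coprime_two_left.mpr hodd)) h1 h2

/-- Ambient form: `K` subnormal in `K ⊔ J`, `d ∈ K`, `x ∈ K ⊔ J` a 2-element, `d * x` of odd
order: then `d * x ∈ K`. -/
theorem odd_mul_mem_of_subnormal {K J : Subgroup G}
    (hsn : (K.subgroupOf (K ⊔ J)).IsSubnormal) {d x : G} (hd : d ∈ K) (hx : x ∈ K ⊔ J)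
    {n : ℕ} (hxn : x ^ (2 ^ n) = 1) (hodd : Odd (orderOf (d * x))) : d * x ∈ K := by
  have hdX : d ∈ K ⊔ J := (le_sup_left : K ≤ K ⊔ J) hd
  have hx' : (⟨x, hx⟩ : ↥(K ⊔ J)) ^ (2 ^ n) = 1 := by
    apply Subtype.ext
    simpa using hxn
  have hodd' : Odd (orderOf ((⟨d, hdX⟩ : ↥(K ⊔ J)) * ⟨x, hx⟩)) := by
    have h1 : (((⟨d, hdX⟩ : ↥(K ⊔ J)) * ⟨x, hx⟩ : ↥(K ⊔ J)) : G) = d * x := rfl
    rw [← Subgroup.orderOf_coe, h1]; exact hodd
  have h := odd_mem_of_isSubnormal hsn ⟨d, hdX⟩ ⟨x, hx⟩ (Subgroup.mem_subgroupOf.mpr hd)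
    ⟨n, hx'⟩ hodd'
  exact Subgroup.mem_subgroupOf.mp h

/-- `O₂(K) ≤ O₂(K ⊔ J)` when `K` is subnormal in `K ⊔ J`. -/
theorem pCoreOf_le_pCoreOf_sup {K J : Subgroup G}
    (hsn : (K.subgroupOf (K ⊔ J)).IsSubnormal) : pCoreOf 2 K ≤ pCoreOf 2 (K ⊔ J) := by
  have : Fact (Nat.Prime 2) := ⟨Nat.prime_two⟩
  intro q hq
  have hqK : q ∈ K := Cfsg.Agent.Lib.Helper47.pCoreOf_le 2 K hq
  have hqX : q ∈ K ⊔ J := (le_sup_left : K ≤ K ⊔ J) hqK
  have hA2 : IsPGroup 2 ((pCoreOf 2 K).subgroupOf (K ⊔ J)) :=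
    (Cfsg.Agent.Lib.Helper47.pCoreOf_isPGroup 2 K).comap_of_injective (K ⊔ J).subtype
      (K ⊔ J).subtype_injective
  have hAB : (pCoreOf 2 K).subgroupOf (K ⊔ J) ≤ K.subgroupOf (K ⊔ J) := by
    intro b hb
    exact Subgroup.mem_subgroupOf.mpr
      (Cfsg.Agent.Lib.Helper47.pCoreOf_le 2 K (Subgroup.mem_subgroupOf.mp hb))
  have hBA : K.subgroupOf (K ⊔ J) ≤
      Subgroup.normalizer (((pCoreOf 2 K).subgroupOf (K ⊔ J) : Subgroup ↥(K ⊔ J)) :
        Set ↥(K ⊔ J)) := by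
    intro b hb
    rw [Subgroup.mem_normalizer_iff]
    intro h
    rw [Subgroup.mem_subgroupOf, Subgroup.mem_subgroupOf]
    have h1 := Subgroup.mem_normalizer_iff.mp
      (Cfsg.Agent.Lib.Helper47.le_normalizer_pCoreOf 2 K (Subgroup.mem_subgroupOf.mp hb)) (h : G)
    simpa using h1
  have h1 := Cfsg.Agent.Lib.Helper47.le_pCoreOf_of_le_normalizer hA2 hAB hBA
  have h2 := Cfsg.Agent.Lib.Helper47.pCoreOf_le_pCore_of_isSubnormal (p := 2) hsn
  have h3 : (⟨q, hqX⟩ : ↥(K ⊔ J)) ∈ pCore 2 ↥(K ⊔ J) :=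
    h2 (h1 (Subgroup.mem_subgroupOf.mpr hq))
  exact ⟨⟨q, hqX⟩, h3, rfl⟩

theorem exists_pow_two_eq_one {R : Subgroup G} (hR : IsPGroup 2 R) {g : G} (hg : g ∈ R) :
    ∃ m : ℕ, g ^ (2 ^ m) = 1 := by
  obtain ⟨m, hm⟩ := hR ⟨g, hg⟩
  refine ⟨m, ?_⟩
  have h1 := congrArg Subtype.val hm
  simpa using h1

/-- Index-2 fact in relative form. -/
theorem mul_mem_of_relIndex_two {F B : Subgroup G} (h : F.relIndex B = 2) {u u' : G}
    (hu : u ∈ B) (hu' : u' ∈ B) (h1 : u ∉ F) (h2 : u' ∉ F) : u * u' ∈ F := by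
  have h3 := Subgroup.mul_mem_iff_of_index_two (H := F.subgroupOf B) h
    (a := ⟨u, hu⟩) (b := ⟨u', hu'⟩)
  rw [Subgroup.mem_subgroupOf, Subgroup.mem_subgroupOf, Subgroup.mem_subgroupOf] at h3
  exact h3.mpr (iff_of_false h1 h2)

theorem sq_mem_of_relIndex_two {F B : Subgroup G} (h : F.relIndex B = 2) {u : G}
    (hu : u ∈ B) : u * u ∈ F := by
  have h3 := Subgroup.mul_self_mem_of_index_two (H := F.subgroupOf B) h ⟨u, hu⟩
  exact Subgroup.mem_subgroupOf.mp h3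

/-- Elements of `zpowers u₀` when `u₀ * u₀ = 1`. -/
theorem mem_zpowers_of_sq {u₀ v : G} (h : u₀ * u₀ = 1) (hv : v ∈ Subgroup.zpowers u₀) :
    v = 1 ∨ v = u₀ := by
  obtain ⟨k, rfl⟩ := Subgroup.mem_zpowers_iff.mp hv
  have h2 : u₀ ^ (2 : ℤ) = 1 := by
    rw [zpow_two]; exact h
  have h3 : u₀ ^ k = u₀ ^ (k % 2) := by
    conv_lhs => rw [← Int.emod_add_mul_ediv k 2]
    rw [zpow_add, zpow_mul, h2, one_zpow, mul_one]
  rcases Int.emod_two_eq_zero_or_one k with h4 | h4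
  · left; rw [h3, h4, zpow_zero]
  · right; rw [h3, h4, zpow_one]

theorem card_zpowers_of_sq {u₀ : G} (h : u₀ * u₀ = 1) (h1 : u₀ ≠ 1) :
    Nat.card (Subgroup.zpowers u₀) = 2 := by
  have : Fact (Nat.Prime 2) := ⟨Nat.prime_two⟩
  rw [Nat.card_zpowers]
  exact orderOf_eq_prime (by rw [pow_two]; exact h) h1

/-- `A ≤ K ≤ B`, `|B| = p |A|`, `K ≠ A` imply `K = B`. -/
theorem eq_of_mid_of_prime [Finite G] {p : ℕ} (hp : p.Prime)
    {A K B : Subgroup G} (hAK : A ≤ K) (hKB : K ≤ B) (hcard : Nat.card B = p * Nat.card A)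
    (hne : K ≠ A) : K = B := by
  have h1 : Nat.card A ∣ Nat.card K := Subgroup.card_dvd_of_le hAK
  have h2 : Nat.card K ∣ Nat.card B := Subgroup.card_dvd_of_le hKB
  obtain ⟨m, hm⟩ := h1
  have hApos : 0 < Nat.card A := Nat.card_pos
  rw [hcard, hm, mul_comm p] at h2
  have h3 : m ∣ p := Nat.dvd_of_mul_dvd_mul_left hApos h2
  rcases (Nat.dvd_prime hp).mp h3 with rfl | rfl
  · exfalso; apply hne
    exact (Subgroup.eq_of_le_of_card_ge hAK (by rw [hm]; simp)).symm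
  · exact Subgroup.eq_of_le_of_card_ge hKB (by rw [hcard, hm, mul_comm])

/-- A four-group inside `G`. -/
structure IsFour (Vi : Subgroup G) : Prop where
  card : Nat.card Vi = 4
  sq : ∀ u ∈ Vi, u * u = 1
  comm : ∀ u ∈ Vi, ∀ v ∈ Vi, u * v = v * u

theorem IsFour.exists_ne_one {Vi : Subgroup G} (h : IsFour Vi) : ∃ u ∈ Vi, u ≠ 1 := by
  by_contra hcon
  push Not at hcon
  have hb : Vi = ⊥ := (Subgroup.eq_bot_iff_forall Vi).mpr hcon
  have hc := h.card
  rw [hb, Subgroup.card_bot] at hc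
  omega

theorem IsFour.inv_eq {Vi : Subgroup G} (h : IsFour Vi) {u : G} (hu : u ∈ Vi) : u⁻¹ = u :=
  inv_eq_of_mul_eq_one_left (h.sq u hu)

/-- A 2-element normalizing a four-group fixes a nonidentity element of it. -/
theorem IsFour.exists_fixed_of_two {Vi : Subgroup G} (h : IsFour Vi) :
    ∀ (n : ℕ) (s : G), (∀ u ∈ Vi, s * u * s⁻¹ ∈ Vi) → s ^ (2 ^ n) = 1 →
      ∃ u ∈ Vi, u ≠ 1 ∧ s * u * s⁻¹ = u := by
  intro n
  induction n with
  | zero =>
    intro s _ hs1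
    rw [pow_zero, pow_one] at hs1
    obtain ⟨u, hu, hu1⟩ := h.exists_ne_one
    exact ⟨u, hu, hu1, by rw [hs1]; group⟩
  | succ n ih =>
    intro s hs hs1
    have hss : ∀ u ∈ Vi, (s * s) * u * (s * s)⁻¹ ∈ Vi := by
      intro u hu
      have h1 : (s * s) * u * (s * s)⁻¹ = s * (s * u * s⁻¹) * s⁻¹ := by group
      rw [h1]; exact hs _ (hs u hu)
    have hss1 : (s * s) ^ (2 ^ n) = 1 := by
      rw [← pow_two, ← pow_mul, ← pow_succ']; exact hs1
    obtain ⟨u, hu, hu1, hfix⟩ := ih (s * s) hss hss1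
    by_cases hw : u * (s * u * s⁻¹) = 1
    · refine ⟨u, hu, hu1, ?_⟩
      have h1 : s * u * s⁻¹ = u⁻¹ := (inv_eq_of_mul_eq_one_right hw).symm
      rw [h1, h.inv_eq hu]
    · refine ⟨u * (s * u * s⁻¹), Vi.mul_mem hu (hs u hu), hw, ?_⟩
      have h1 : s * (u * (s * u * s⁻¹)) * s⁻¹ = (s * u * s⁻¹) * ((s * s) * u * (s * s)⁻¹) := by
        group
      rw [h1, hfix]
      exact h.comm _ (hs u hu) _ hu

theorem card_mul_relIndex' [Finite G] {H K : Subgroup G} (h : H ≤ K) :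
    Nat.card H * H.relIndex K = Nat.card K := by
  have h1 := Subgroup.relIndex_mul_relIndex ⊥ H K bot_le h
  simpa [Subgroup.relIndex_bot_left] using h1

/-- An element normalizing a four-group, some odd power of which centralizes it, and fixing a
nonidentity element of it, centralizes it. -/
theorem IsFour.centralizes_of_odd [Finite G] {Vi : Subgroup G} (h : IsFour Vi) {s : G}
    (hs : ∀ u ∈ Vi, s * u * s⁻¹ ∈ Vi) {m : ℕ} (hodd : Odd m)
    (hsm : s ^ m ∈ Subgroup.centralizer (Vi : Set G)) {u₀ : G} (hu₀ : u₀ ∈ Vi)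
    (hu₀1 : u₀ ≠ 1) (hfix : s * u₀ * s⁻¹ = u₀) : ∀ u ∈ Vi, s * u * s⁻¹ = u := by
  have hF₀le : Subgroup.zpowers u₀ ≤ Vi := by
    rw [Subgroup.zpowers_le]; exact hu₀
  have hF₀card := card_zpowers_of_sq (h.sq u₀ hu₀) hu₀1
  have hidx : (Subgroup.zpowers u₀).relIndex Vi = 2 := by
    have h1 := card_mul_relIndex' hF₀le
    rw [hF₀card, h.card] at h1
    omega
  -- every element is moved inside its coset
  have hstep : ∀ u ∈ Vi, s * u * s⁻¹ = u ∨ s * u * s⁻¹ = u * u₀ := by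
    intro u hu
    by_cases huF : u ∈ Subgroup.zpowers u₀
    · rcases mem_zpowers_of_sq (h.sq u₀ hu₀) huF with rfl | rfl
      · left; group
      · left; exact hfix
    · have hsuF : s * u * s⁻¹ ∉ Subgroup.zpowers u₀ := by
        intro hcon
        apply huF
        rcases mem_zpowers_of_sq (h.sq u₀ hu₀) hcon with h1 | h1
        · have h2 : u = 1 := by
            have h3 : u = s⁻¹ * (s * u * s⁻¹) * s := by group
            rw [h3, h1]; group
          rw [h2]; exact Subgroup.one_mem _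
        · have h2 : u = u₀ := by
            calc u = s⁻¹ * (s * u * s⁻¹) * s := by group
              _ = s⁻¹ * u₀ * s := by rw [h1]
              _ = s⁻¹ * (s * u₀ * s⁻¹) * s := by rw [hfix]
              _ = u₀ := by group
          rw [h2]; exact Subgroup.mem_zpowers u₀
      have h1 := mul_mem_of_relIndex_two hidx hu (hs u hu) huF hsuF
      rcases mem_zpowers_of_sq (h.sq u₀ hu₀) h1 with h2 | h2
      · left
        have h3 : s * u * s⁻¹ = u⁻¹ := (inv_eq_of_mul_eq_one_right h2).symm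
        rw [h3, h.inv_eq hu]
      · right
        have h3 : s * u * s⁻¹ = u⁻¹ * u₀ := by rw [← h2]; group
        rw [h3, h.inv_eq hu]
  -- `s * s` centralizes `Vi`
  have hss : s * s ∈ Subgroup.centralizer (Vi : Set G) := by
    rw [Subgroup.mem_centralizer_iff]
    intro u hu
    have h1 : (s * s) * u * (s * s)⁻¹ = u := by
      have h2 : (s * s) * u * (s * s)⁻¹ = s * (s * u * s⁻¹) * s⁻¹ := by group
      rw [h2]
      rcases hstep u hu with h3 | h3
      · rw [h3, h3]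
      · rw [h3]
        have h4 : s * (u * u₀) * s⁻¹ = (s * u * s⁻¹) * (s * u₀ * s⁻¹) := by group
        rw [h4, h3, hfix, mul_assoc, h.sq u₀ hu₀, mul_one]
    have h2 : u * (s * s) = (s * s) * u * (s * s)⁻¹ * (s * s) := by rw [h1]
    rw [h2]; group
  -- `s` is a power of `s * s`
  obtain ⟨k, hk⟩ := hodd
  have hs1 : s = s ^ m * ((s * s) ^ k)⁻¹ := by
    rw [hk, ← pow_two, ← pow_mul, pow_succ]
    group
  have hsc : s ∈ Subgroup.centralizer (Vi : Set G) := by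
    rw [hs1]
    exact Subgroup.mul_mem _ hsm (Subgroup.inv_mem _ (Subgroup.pow_mem _ hss _))
  intro u hu
  have h1 := Subgroup.mem_centralizer_iff.mp hsc u hu
  rw [← h1]; group

/-- If `x` acts fixed-point-freely on a four-group `Vi`, `s` normalizes `Vi`, commutes with `x`
in the action on `Vi` and fixes a nonidentity element of `Vi`, then `s` centralizes `Vi`. -/
theorem IsFour.centralizes_of_comm [Finite G] {Vi : Subgroup G} (h : IsFour Vi) {x s : G}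
    (hx : ∀ u ∈ Vi, x * u * x⁻¹ ∈ Vi) (hxfp : ∀ u ∈ Vi, x * u * x⁻¹ = u → u = 1)
    (hcomm : ∀ u ∈ Vi, s * (x * u * x⁻¹) * s⁻¹ = x * (s * u * s⁻¹) * x⁻¹)
    {u₀ : G} (hu₀ : u₀ ∈ Vi) (hu₀1 : u₀ ≠ 1) (hfix : s * u₀ * s⁻¹ = u₀) :
    ∀ u ∈ Vi, s * u * s⁻¹ = u := by
  have hF₀le : Subgroup.zpowers u₀ ≤ Vi ⊓ Subgroup.centralizer {s} := by
    rw [Subgroup.zpowers_le]
    refine Subgroup.mem_inf.mpr ⟨hu₀, ?_⟩
    rw [Subgroup.mem_centralizer_iff]
    intro t ht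
    rw [Set.mem_singleton_iff] at ht
    subst ht
    have h1 : t * u₀ = t * u₀ * t⁻¹ * t := by group
    rw [h1, hfix]
  have hF₀card := card_zpowers_of_sq (h.sq u₀ hu₀) hu₀1
  have hu₁ : x * u₀ * x⁻¹ ∈ Vi ⊓ Subgroup.centralizer {s} := by
    refine Subgroup.mem_inf.mpr ⟨hx u₀ hu₀, ?_⟩
    rw [Subgroup.mem_centralizer_iff]
    intro t ht
    rw [Set.mem_singleton_iff] at ht
    subst ht
    have h1 : t * (x * u₀ * x⁻¹) = t * (x * u₀ * x⁻¹) * t⁻¹ * t := by group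
    rw [h1, hcomm u₀ hu₀, hfix]
  have hne : Vi ⊓ Subgroup.centralizer {s} ≠ Subgroup.zpowers u₀ := by
    intro hcon
    rw [hcon] at hu₁
    rcases mem_zpowers_of_sq (h.sq u₀ hu₀) hu₁ with h1 | h1
    · apply hu₀1
      have h2 : u₀ = x⁻¹ * (x * u₀ * x⁻¹) * x := by group
      rw [h2, h1]; group
    · exact hu₀1 (hxfp u₀ hu₀ h1)
  have heq : Vi ⊓ Subgroup.centralizer {s} = Vi :=
    eq_of_mid_of_prime Nat.prime_two hF₀le inf_le_left (by rw [h.card, hF₀card]) hne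
  intro u hu
  rw [← heq] at hu
  have h1 := Subgroup.mem_centralizer_iff.mp (Subgroup.mem_inf.mp hu).2 s rfl
  rw [h1]; group

end Cfsg.Agent.Lib.Helper33.KS12
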