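import Mathlib
import Cfsg.Prelude.Def_JComponents
import Cfsg.Agent.Lib.Helper33.KS12.SubnOdd

/-!
# S2945, abstract core (helper33)

`K ≤ L` generated by its odd-order elements, subnormal in `K ⊔ J`, with `W_K` of order 4 and
`N(W_K) ≤ N(K)`; `L` has the "FF shape" (`FFData`).  Then `J ≤ N(K)`.
-/

set_option autoImplicit false

namespace Cfsg.Agent.Lib.Helper33.KS12

open Cfsg
open Cfsg.Agent.Lib.Helper71.JC (mem_of_pow_mem_coprime conj_mem_of_mem_normalizer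
  conj_inv_mem_of_mem_normalizer)
open scoped commutatorElement

universe u
variable {G : Type u} [Group G]

/-- The FF shape of `L` over `C = C_L(V)`: subgroups `C ≤ D i ≤ E i ≤ L` with `E i / C ≅ S₃`,
`D i / C = O₃`, permuted by `L`, commuting modulo `C`, `|[V, D i]| = 4`, and `J` generated by
its intersections with the `E i` and with `C`. -/
structure FFData (L V C J : Subgroup G) (n : ℕ) (E D : Fin n → Subgroup G) : Prop where
  hCD : ∀ i, C ≤ D i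
  hDE : ∀ i, D i ≤ E i
  hEL : ∀ i, E i ≤ L
  idx3 : ∀ i, C.relIndex (D i) = 3
  idx2 : ∀ i, (D i).relIndex (E i) = 2
  inv : ∀ i, ∀ e ∈ E i, e ∉ D i → ∀ g ∈ D i, e * g * e⁻¹ * g ∈ C
  card4 : ∀ i, Nat.card ↥⁅V, D i⁆ = 4
  comm : ∀ i j, i ≠ j → ∀ e ∈ E i, ∀ f ∈ E j, ⁅e, f⁆ ∈ C
  perm : ∀ l ∈ L, ∀ i, ∃ j, (E i).map (MulAut.conj l).toMonoidHom = E j ∧
    (D i).map (MulAut.conj l).toMonoidHom = D j
  gen : J ≤ (⨆ i, J ⊓ E i) ⊔ (J ⊓ C)

/-- The remaining hypotheses of the abstract core. -/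
structure Setup (K J L V C QL : Subgroup G) : Prop where
  hgen : Subgroup.closure {g : G | g ∈ K ∧ Odd (orderOf g)} = K
  hW4 : Nat.card ↥(wOf K) = 4
  hNW : Subgroup.normalizer (wOf K : Set G) ≤ Subgroup.normalizer (K : Set G)
  hsn : (K.subgroupOf (K ⊔ J)).IsSubnormal
  hKL : K ≤ L
  hJL : J ≤ L
  hJ2 : IsPGroup 2 J
  hVJ : V ≤ J
  hLV : L ≤ Subgroup.normalizer (V : Set G)
  hVcomm : ∀ u ∈ V, ∀ v ∈ V, u * v = v * u
  hVsq : ∀ v ∈ V, v * v = 1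
  hCL : C ≤ L
  hCV : ∀ c ∈ C, ∀ v ∈ V, c * v = v * c
  hCmem : ∀ g ∈ L, (∀ v ∈ V, g * v = v * g) → g ∈ C
  hLC : L ≤ Subgroup.normalizer (C : Set G)
  hQL2 : IsPGroup 2 QL
  hLQ : L ≤ Subgroup.normalizer (QL : Set G)
  hJCQ : J ⊓ C ≤ QL
  hcommQ : ∀ c ∈ C, ∀ t ∈ J, ⁅c, t⁆ ∈ QL

section

variable {K J L V C QL : Subgroup G}

theorem Setup.hXL (S : Setup K J L V C QL) : K ⊔ J ≤ L := sup_le S.hKL S.hJL

/-- `a d a⁻¹ ∈ K` as soon as `d⁻¹ a d a⁻¹` is a 2-element. -/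
theorem Setup.conj_mem_of_two (S : Setup K J L V C QL) {a d : G} (haX : a ∈ K ⊔ J) (hd : d ∈ K)
    (hodd : Odd (orderOf d)) {m : ℕ} (hx : (d⁻¹ * a * d * a⁻¹) ^ (2 ^ m) = 1) :
    a * d * a⁻¹ ∈ K := by
  have hdX : d ∈ K ⊔ J := (le_sup_left : K ≤ K ⊔ J) hd
  have hxX : d⁻¹ * a * d * a⁻¹ ∈ K ⊔ J :=
    Subgroup.mul_mem _ (Subgroup.mul_mem _ (Subgroup.mul_mem _ (Subgroup.inv_mem _ hdX) haX) hdX)
      (Subgroup.inv_mem _ haX)
  have h1 : a * d * a⁻¹ = d * (d⁻¹ * a * d * a⁻¹) := by group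
  have h2 : Odd (orderOf (d * (d⁻¹ * a * d * a⁻¹))) := by
    rw [← h1, Cfsg.Agent.Lib.Helper67.KS12.orderOf_conj_eq']; exact hodd
  rw [h1]
  exact odd_mul_mem_of_subnormal S.hsn hd hxX hx h2

/-- A 2-subgroup `R ≤ K ⊔ J` normalized by `K` normalizes `K`. -/
theorem Setup.le_normalizer_of_two (S : Setup K J L V C QL) {R : Subgroup G}
    (hR2 : IsPGroup 2 R) (hRX : R ≤ K ⊔ J) (hKR : K ≤ Subgroup.normalizer (R : Set G)) :
    R ≤ Subgroup.normalizer (K : Set G) := by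
  apply Cfsg.Agent.Lib.Helper53.le_normalizer_of_conj_mem
  intro r hr w hw
  rw [← S.hgen] at hw
  induction hw using Subgroup.closure_induction with
  | mem y hy =>
    obtain ⟨hyK, hyodd⟩ := hy
    have h1 : y⁻¹ * r * y * r⁻¹ ∈ R :=
      R.mul_mem (conj_inv_mem_of_mem_normalizer (hKR hyK) hr) (R.inv_mem hr)
    obtain ⟨m, hm⟩ := exists_pow_two_eq_one hR2 h1
    exact S.conj_mem_of_two (hRX hr) hyK hyodd hm
  | one => simp
  | mul x y _ _ hx hy =>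
    have h1 : r * (x * y) * r⁻¹ = (r * x * r⁻¹) * (r * y * r⁻¹) := by group
    rw [h1]; exact Subgroup.mul_mem _ hx hy
  | inv x _ hx =>
    have h1 : r * x⁻¹ * r⁻¹ = (r * x * r⁻¹)⁻¹ := by group
    rw [h1]; exact Subgroup.inv_mem _ hx

theorem Setup.V2 (S : Setup K J L V C QL) : IsPGroup 2 V := by
  rintro ⟨v, hv⟩
  refine ⟨1, ?_⟩
  apply Subtype.ext
  have h1 := S.hVsq v hv
  simpa [pow_two] using h1

theorem Setup.V_le_normalizer (S : Setup K J L V C QL) : V ≤ Subgroup.normalizer (K : Set G) :=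
  S.le_normalizer_of_two S.V2 (S.hVJ.trans le_sup_right) (S.hKL.trans S.hLV)

theorem Setup.V_inv (S : Setup K J L V C QL) {v : G} (hv : v ∈ V) : v⁻¹ = v :=
  inv_eq_of_mul_eq_one_left (S.hVsq v hv)

/-- Case 1 computation: if `x = d⁻¹ a d a⁻¹` has `x² ∈ C` (and `a² ∈ C`, `a ∈ J`), then `x` is a
2-element. -/
theorem Setup.two_of_sq_mem (S : Setup K J L V C QL) {a d x : G} (haJ : a ∈ J) (hdL : d ∈ L)
    (hxdef : x = d⁻¹ * a * d * a⁻¹) (haa : a * a ∈ C) (hxx : x * x ∈ C) :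
    ∃ m : ℕ, x ^ (2 ^ m) = 1 := by
  have haL : a ∈ L := S.hJL haJ
  have hxL : x ∈ L := by
    rw [hxdef]
    exact L.mul_mem (L.mul_mem (L.mul_mem (L.inv_mem hdL) haL) hdL) (L.inv_mem haL)
  have haaQ : a * a ∈ QL := S.hJCQ (Subgroup.mem_inf.mpr ⟨J.mul_mem haJ haJ, haa⟩)
  have hz : d⁻¹ * (a * a) * d * (a * a)⁻¹ ∈ QL :=
    QL.mul_mem (conj_inv_mem_of_mem_normalizer (S.hLQ hdL) haaQ) (QL.inv_mem haaQ)
  have hq : ⁅x * x, a⁆ ∈ QL := S.hcommQ (x * x) hxx a haJ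
  have hid : (x * x) * (x * x) = (x * x) * ⁅x * x, a⁆ * (x * x)⁻¹ *
      (x * (d⁻¹ * (a * a) * d * (a * a)⁻¹) * x⁻¹) * (d⁻¹ * (a * a) * d * (a * a)⁻¹) := by
    subst hxdef
    rw [commutatorElement_def]
    group
  have h4 : (x * x) * (x * x) ∈ QL := by
    rw [hid]
    exact QL.mul_mem (QL.mul_mem
      (conj_mem_of_mem_normalizer (S.hLQ (L.mul_mem hxL hxL)) hq)
      (conj_mem_of_mem_normalizer (S.hLQ hxL) hz)) hz
  obtain ⟨m, hm⟩ := exists_pow_two_eq_one S.hQL2 h4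
  refine ⟨m + 2, ?_⟩
  have h5 : (x * x) * (x * x) = x ^ 4 := by
    rw [show (4 : ℕ) = 2 + 2 from rfl, pow_add, pow_two]
  rw [h5, ← pow_mul] at hm
  have h6 : 2 ^ (m + 2) = 4 * 2 ^ m := by ring
  rw [h6]; exact hm

end

section FF

variable {K J L V C QL : Subgroup G} {n : ℕ} {E D : Fin n → Subgroup G}

theorem FFData.hDL (F : FFData L V C J n E D) (i : Fin n) : D i ≤ L := (F.hDE i).trans (F.hEL i)

theorem FFData.cube_mem (F : FFData L V C J n E D) (S : Setup K J L V C QL) {i : Fin n} {g : G}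
    (hg : g ∈ D i) : g ^ 3 ∈ C := by
  have hn : (C.subgroupOf (D i)).Normal :=
    (Subgroup.normal_subgroupOf_iff_le_normalizer (F.hCD i)).mpr ((F.hDL i).trans S.hLC)
  have h1 := Subgroup.pow_index_mem (C.subgroupOf (D i)) (⟨g, hg⟩ : ↥(D i))
  have h2 : (C.subgroupOf (D i)).index = 3 := F.idx3 i
  rw [h2] at h1
  have h3 := Subgroup.mem_subgroupOf.mp h1
  simpa using h3

theorem FFData.two_mem (F : FFData L V C J n E D) (S : Setup K J L V C QL) {i : Fin n} {g : G}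
    (hg : g ∈ D i) {m : ℕ} (hm : g ^ (2 ^ m) = 1) : g ∈ C := by
  have h1 : g ^ (2 ^ m) ∈ C := by rw [hm]; exact C.one_mem
  exact mem_of_pow_mem_coprime (Nat.Coprime.pow_left m (by norm_num)) h1 (F.cube_mem S hg)

theorem FFData.mem_of_sq_mem (F : FFData L V C J n E D) (S : Setup K J L V C QL) {i : Fin n}
    {g : G} (hg : g ∈ D i) (h2 : g * g ∈ C) : g ∈ C := by
  have h3 := F.cube_mem S hg
  have h1 : g = g ^ 3 * (g * g)⁻¹ := by group
  rw [h1]; exact C.mul_mem h3 (C.inv_mem h2)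

theorem FFData.sq_mem (F : FFData L V C J n E D) (S : Setup K J L V C QL) {i : Fin n} {a : G}
    (ha : a ∈ E i) (haD : a ∉ D i) : a * a ∈ C := by
  have h1 : a * a ∈ D i := sq_mem_of_relIndex_two (F.idx2 i) ha
  have h2 := F.inv i a ha haD (a * a) h1
  have h3 : a * (a * a) * a⁻¹ * (a * a) = (a * a) * (a * a) := by group
  rw [h3] at h2
  exact F.mem_of_sq_mem S h1 h2

theorem FFData.E_le_normalizer (F : FFData L V C J n E D) (i : Fin n) :
    E i ≤ Subgroup.normalizer (D i : Set G) := by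
  have hn : ((D i).subgroupOf (E i)).Normal := Subgroup.normal_of_index_eq_two (F.idx2 i)
  exact (Subgroup.normal_subgroupOf_iff_le_normalizer (F.hDE i)).mp hn

theorem mem_normalizer_commutator {A B : Subgroup G} {g : G}
    (hA : g ∈ Subgroup.normalizer (A : Set G)) (hB : g ∈ Subgroup.normalizer (B : Set G)) :
    g ∈ Subgroup.normalizer ((⁅A, B⁆ : Subgroup G) : Set G) := by
  rw [Subgroup.mem_normalizer_iff_map_conj_eq] at hA hB ⊢
  rw [Subgroup.map_commutator, hA, hB]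

theorem FFData.comm_le (F : FFData L V C J n E D) (S : Setup K J L V C QL) (i : Fin n) :
    ⁅V, D i⁆ ≤ V := by
  rw [Subgroup.commutator_le]
  intro v hv g hg
  have h1 : ⁅v, g⁆ = v * (g * v⁻¹ * g⁻¹) := by
    rw [commutatorElement_def]; group
  rw [h1]
  exact V.mul_mem hv (conj_mem_of_mem_normalizer (S.hLV (F.hDL i hg)) (V.inv_mem hv))

theorem FFData.isFour (F : FFData L V C J n E D) (S : Setup K J L V C QL) (i : Fin n) :
    IsFour ⁅V, D i⁆ where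
  card := F.card4 i
  sq := fun u hu => S.hVsq u (F.comm_le S i hu)
  comm := fun u hu v hv => S.hVcomm u (F.comm_le S i hu) v (F.comm_le S i hv)

theorem FFData.conj_mem_Vi (F : FFData L V C J n E D) (S : Setup K J L V C QL) {i : Fin n}
    {g : G} (hgL : g ∈ L) (hgD : g ∈ Subgroup.normalizer (D i : Set G)) {u : G}
    (hu : u ∈ ⁅V, D i⁆) : g * u * g⁻¹ ∈ ⁅V, D i⁆ :=
  conj_mem_of_mem_normalizer (mem_normalizer_commutator (S.hLV hgL) hgD) hu

/-- `C` centralizes `[V, D i]`. -/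
theorem FFData.C_centralizes (F : FFData L V C J n E D) (S : Setup K J L V C QL) {i : Fin n}
    {c : G} (hc : c ∈ C) : c ∈ Subgroup.centralizer ((⁅V, D i⁆ : Subgroup G) : Set G) := by
  rw [Subgroup.mem_centralizer_iff]
  intro u hu
  exact (S.hCV c hc u (F.comm_le S i hu)).symm

/-- An element of `D i` outside `C` has no nontrivial fixed point on `[V, D i]`. -/
theorem FFData.fpf [Finite G] (F : FFData L V C J n E D) (S : Setup K J L V C QL) {i : Fin n}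
    {x : G} (hx : x ∈ D i) (hxC : x ∉ C) :
    ∀ u ∈ ⁅V, D i⁆, x * u * x⁻¹ = u → u = 1 := by
  intro u₀ hu₀ hfix
  by_contra hu₀1
  apply hxC
  have hxL : x ∈ L := F.hDL i hx
  have hxN : x ∈ Subgroup.normalizer (D i : Set G) := Subgroup.le_normalizer hx
  have hcent := (F.isFour S i).centralizes_of_odd (s := x)
    (fun u hu => F.conj_mem_Vi S hxL hxN hu) (m := 3) (by decide)
    (F.C_centralizes S (F.cube_mem S hx)) hu₀ hu₀1 hfix
  apply S.hCmem x hxL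
  intro v hv
  have hs : x * v * x⁻¹ ∈ V := conj_mem_of_mem_normalizer (S.hLV hxL) hv
  have hwV : x * v * x⁻¹ * v⁻¹ ∈ ⁅V, D i⁆ := by
    have h1 : x * v * x⁻¹ * v⁻¹ = ⁅x, v⁆ := by rw [commutatorElement_def]
    rw [h1, Subgroup.commutator_comm]
    exact Subgroup.commutator_mem_commutator hx hv
  have hw := hcent _ hwV
  -- `t = s * v⁻¹ * s` where `s = x v x⁻¹`, `t = x s x⁻¹`
  have h2 : x * (x * v * x⁻¹) * x⁻¹ = v := by
    have h3 : x * (x * v * x⁻¹) * x⁻¹ =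
        (x * (x * v * x⁻¹ * v⁻¹) * x⁻¹) * (x * v * x⁻¹) := by group
    rw [h3, hw]
    have h4 : x * v * x⁻¹ * v⁻¹ * (x * v * x⁻¹) = (x * v * x⁻¹) * (v⁻¹ * (x * v * x⁻¹)) := by
      group
    rw [h4, S.hVcomm v⁻¹ (V.inv_mem hv) _ hs, ← mul_assoc, S.hVsq _ hs, one_mul, S.V_inv hv]
  have hx3 : x ^ 3 = x * x * x := by rw [pow_succ, pow_two]
  have h3 : (x * x * x) * v = v * (x * x * x) := by
    rw [← hx3]; exact S.hCV _ (F.cube_mem S hx) v hv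
  have h5 : x * v * x⁻¹ = v := by
    calc x * v * x⁻¹ = x * (x * (x * v * x⁻¹) * x⁻¹) * x⁻¹ := by rw [h2]
      _ = (x * x * x) * v * (x * x * x)⁻¹ := by group
      _ = v := by rw [h3]; group
  calc x * v = x * v * x⁻¹ * x := by group
    _ = v * x := by rw [h5]

/-- (i) An element `r ∈ L` such that `z = r x r⁻¹ x⁻¹` and `z * (a z a⁻¹)` are 2-elements
normalizes `D i` and centralizes `x` modulo `C`. -/
theorem FFData.core_step (F : FFData L V C J n E D) (S : Setup K J L V C QL) {i : Fin n}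
    {a x r : G} (ha : a ∈ E i) (haD : a ∉ D i) (hx : x ∈ D i) (hxC : x ∉ C) (hrL : r ∈ L)
    {m₁ : ℕ} (hz : (r * x * r⁻¹ * x⁻¹) ^ (2 ^ m₁) = 1)
    {m₂ : ℕ}
    (hw : ((r * x * r⁻¹ * x⁻¹) * (a * (r * x * r⁻¹ * x⁻¹) * a⁻¹)) ^ (2 ^ m₂) = 1) :
    r ∈ Subgroup.normalizer (D i : Set G) ∧ r * x * r⁻¹ * x⁻¹ ∈ C := by
  obtain ⟨j, hE, hD⟩ := F.perm r hrL i
  have hx' : r * x * r⁻¹ ∈ D j := by
    rw [← hD]; exact ⟨x, hx, by simp [MulAut.conj_apply]⟩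
  by_cases hji : j = i
  · rw [hji] at hD hx'
    refine ⟨Subgroup.mem_normalizer_iff_map_conj_eq.mpr hD, ?_⟩
    exact F.two_mem S (Subgroup.mul_mem _ hx' (Subgroup.inv_mem _ hx)) hz
  · exfalso
    apply hxC
    have hxL : x ∈ L := F.hDL i hx
    have hx'E : r * x * r⁻¹ ∈ E j := F.hDE j hx'
    have hp₁ : a * x * a⁻¹ * x ∈ C := F.inv i a ha haD x hx
    have hp₂ : ⁅a, r * x * r⁻¹⁆ ∈ C := F.comm i j (Ne.symm hji) a ha _ hx'E
    have hp₃ : ⁅(r * x * r⁻¹)⁻¹, x⁻¹⁆ ∈ C :=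
      F.comm j i hji _ (Subgroup.inv_mem _ hx'E) _ (Subgroup.inv_mem _ (F.hDE i hx))
    have hx'L : r * x * r⁻¹ ∈ L := F.hDL j hx'
    have hc : (x * (r * x * r⁻¹))⁻¹ * ⁅a, r * x * r⁻¹⁆ * (x * (r * x * r⁻¹)) *
        ⁅(r * x * r⁻¹)⁻¹, x⁻¹⁆ * (a * x * a⁻¹ * x)⁻¹ ∈ C :=
      C.mul_mem (C.mul_mem
        (conj_inv_mem_of_mem_normalizer (S.hLC (L.mul_mem hxL hx'L)) hp₂) hp₃) (C.inv_mem hp₁)
    have hid : (r * x * r⁻¹ * x⁻¹) * (a * (r * x * r⁻¹ * x⁻¹) * a⁻¹) =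
        (r * x * r⁻¹) * (r * x * r⁻¹) * ((x * (r * x * r⁻¹))⁻¹ * ⁅a, r * x * r⁻¹⁆ *
          (x * (r * x * r⁻¹)) * ⁅(r * x * r⁻¹)⁻¹, x⁻¹⁆ * (a * x * a⁻¹ * x)⁻¹) := by
      rw [commutatorElement_def, commutatorElement_def]; group
    have hwD : (r * x * r⁻¹ * x⁻¹) * (a * (r * x * r⁻¹ * x⁻¹) * a⁻¹) ∈ D j := by
      rw [hid]; exact (D j).mul_mem ((D j).mul_mem hx' hx') (F.hCD j hc)
    have hwC := F.two_mem S hwD hw
    have hx'x' : (r * x * r⁻¹) * (r * x * r⁻¹) ∈ C := by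
      have h1 := eq_mul_inv_of_mul_eq hid.symm
      rw [h1]; exact C.mul_mem hwC (C.inv_mem hc)
    have hx'C : r * x * r⁻¹ ∈ C := F.mem_of_sq_mem S hx' hx'x'
    have h2 : x = r⁻¹ * (r * x * r⁻¹) * r := by group
    rw [h2]; exact conj_inv_mem_of_mem_normalizer (S.hLC hrL) hx'C

theorem mem_normalizer_inf' {A B : Subgroup G} {g : G}
    (hA : g ∈ Subgroup.normalizer (A : Set G)) (hB : g ∈ Subgroup.normalizer (B : Set G)) :
    g ∈ Subgroup.normalizer ((A ⊓ B : Subgroup G) : Set G) := by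
  rw [Subgroup.mem_normalizer_iff] at hA hB ⊢
  intro h
  rw [Subgroup.mem_inf, Subgroup.mem_inf, hA h, hB h]

theorem mem_omegaCenterOf' {X : Subgroup G} {x : G} (hx : x ∈ X)
    (hc : x ∈ Subgroup.centralizer (X : Set G)) (h2 : x ^ 2 = 1) : x ∈ omegaCenterOf X := by
  unfold omegaCenterOf omegaOne
  exact Subgroup.subset_closure ⟨⟨hx, hc⟩, h2⟩

/-- Case 2: `x = d⁻¹ a d a⁻¹ ∈ D i ∖ C`. Then `[V, D i] = W_K` and `a` normalizes `K`. -/
theorem FFData.case2 [Finite G] (F : FFData L V C J n E D) (S : Setup K J L V C QL) {i : Fin n}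
    {a d : G} (haJ : a ∈ J) (ha : a ∈ E i) (haD : a ∉ D i) (hd : d ∈ K)
    (hodd : Odd (orderOf d)) (hdD : d ∈ Subgroup.normalizer (D i : Set G))
    (hx : d⁻¹ * a * d * a⁻¹ ∈ D i) (hxC : d⁻¹ * a * d * a⁻¹ ∉ C) : a * d * a⁻¹ ∈ K := by
  have : Fact (Nat.Prime 2) := ⟨Nat.prime_two⟩
  have hdL : d ∈ L := S.hKL hd
  have haL : a ∈ L := S.hJL haJ
  have haX : a ∈ K ⊔ J := (le_sup_right : J ≤ K ⊔ J) haJ
  have hdX : d ∈ K ⊔ J := (le_sup_left : K ≤ K ⊔ J) hd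
  have hxX : d⁻¹ * a * d * a⁻¹ ∈ K ⊔ J :=
    Subgroup.mul_mem _ (Subgroup.mul_mem _ (Subgroup.mul_mem _ (Subgroup.inv_mem _ hdX) haX) hdX)
      (Subgroup.inv_mem _ haX)
  generalize hxdef : d⁻¹ * a * d * a⁻¹ = x at hx hxC hxX
  have hxL : x ∈ L := F.hDL i hx
  have h4 := F.isFour S i
  have hfp := F.fpf S hx hxC
  have hxN : x ∈ Subgroup.normalizer (D i : Set G) := Subgroup.le_normalizer hx
  have haN : a ∈ Subgroup.normalizer (D i : Set G) := F.E_le_normalizer i ha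
  have hR2 : IsPGroup 2 (pCoreOf 2 (K ⊔ J)) := Cfsg.Agent.Lib.Helper47.pCoreOf_isPGroup 2 _
  have hRX : pCoreOf 2 (K ⊔ J) ≤ K ⊔ J := Cfsg.Agent.Lib.Helper47.pCoreOf_le 2 _
  have hXR : K ⊔ J ≤ Subgroup.normalizer (pCoreOf 2 (K ⊔ J) : Set G) :=
    Cfsg.Agent.Lib.Helper47.le_normalizer_pCoreOf 2 _
  have hQR : pCoreOf 2 K ≤ pCoreOf 2 (K ⊔ J) := pCoreOf_le_pCoreOf_sup S.hsn
  -- every `r ∈ O₂(K ⊔ J)` centralizes `[V, D i]`
  have hRcent : ∀ r ∈ pCoreOf 2 (K ⊔ J), ∀ u ∈ ⁅V, D i⁆, r * u * r⁻¹ = u := by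
    intro r hr
    have hrL : r ∈ L := S.hXL (hRX hr)
    have hz : r * x * r⁻¹ * x⁻¹ ∈ pCoreOf 2 (K ⊔ J) := by
      have h1 : r * x * r⁻¹ * x⁻¹ = r * (x * r⁻¹ * x⁻¹) := by group
      rw [h1]
      exact Subgroup.mul_mem _ hr (conj_mem_of_mem_normalizer (hXR hxX) (Subgroup.inv_mem _ hr))
    have hw : (r * x * r⁻¹ * x⁻¹) * (a * (r * x * r⁻¹ * x⁻¹) * a⁻¹) ∈ pCoreOf 2 (K ⊔ J) :=
      Subgroup.mul_mem _ hz (conj_mem_of_mem_normalizer (hXR haX) hz)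
    obtain ⟨m₁, hm₁⟩ := exists_pow_two_eq_one hR2 hz
    obtain ⟨m₂, hm₂⟩ := exists_pow_two_eq_one hR2 hw
    obtain ⟨hrN, hrC⟩ := F.core_step S ha haD hx hxC hrL hm₁ hm₂
    obtain ⟨m₃, hm₃⟩ := exists_pow_two_eq_one hR2 hr
    have hrVi : ∀ u ∈ ⁅V, D i⁆, r * u * r⁻¹ ∈ ⁅V, D i⁆ :=
      fun u hu => F.conj_mem_Vi S hrL hrN hu
    obtain ⟨u₀, hu₀, hu₀1, hfix⟩ := h4.exists_fixed_of_two m₃ r hrVi hm₃
    refine h4.centralizes_of_comm (x := x) (fun u hu => F.conj_mem_Vi S hxL hxN hu) hfp ?_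
      hu₀ hu₀1 hfix
    intro u hu
    have huV : u ∈ V := F.comm_le S i hu
    have h1 : x * (r * u * r⁻¹) * x⁻¹ ∈ V :=
      conj_mem_of_mem_normalizer (S.hLV hxL) (conj_mem_of_mem_normalizer (S.hLV hrL) huV)
    have h2 := S.hCV _ hrC _ h1
    have h3 : r * (x * u * x⁻¹) * r⁻¹ = (r * x * r⁻¹ * x⁻¹) * (x * (r * u * r⁻¹) * x⁻¹) *
        (r * x * r⁻¹ * x⁻¹)⁻¹ := by group
    rw [h3, h2]; group
  -- `d` acts fixed-point-freely on `[V, D i]`
  have hdVi : ∀ u ∈ ⁅V, D i⁆, d * u * d⁻¹ ∈ ⁅V, D i⁆ :=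
    fun u hu => F.conj_mem_Vi S hdL hdD hu
  have haVi' : ∀ u ∈ ⁅V, D i⁆, a⁻¹ * u * a ∈ ⁅V, D i⁆ := by
    intro u hu
    have h1 := F.conj_mem_Vi S (L.inv_mem haL) (Subgroup.inv_mem _ haN) hu
    simpa using h1
  have hdfp : ∀ u ∈ ⁅V, D i⁆, d * u * d⁻¹ = u → u = 1 := by
    intro u₀ hu₀ hfix
    by_contra hu₀1
    have hcent := h4.centralizes_of_odd (s := d) hdVi hodd
      (by rw [pow_orderOf_eq_one]; exact Subgroup.one_mem _) hu₀ hu₀1 hfix
    have hxc : x * u₀ * x⁻¹ = u₀ := by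
      rw [← hxdef]
      have h1 := hcent _ (haVi' u₀ hu₀)
      have h2 := hcent u₀ hu₀
      calc d⁻¹ * a * d * a⁻¹ * u₀ * (d⁻¹ * a * d * a⁻¹)⁻¹
          = d⁻¹ * (a * (d * (a⁻¹ * u₀ * a) * d⁻¹) * a⁻¹) * d := by group
        _ = d⁻¹ * (a * (a⁻¹ * u₀ * a) * a⁻¹) * d := by rw [h1]
        _ = d⁻¹ * (d * u₀ * d⁻¹) * d := by rw [h2]; group
        _ = u₀ := by group
    exact hu₀1 (hfp u₀ hu₀ hxc)
  -- every element of `[V, D i]` is a commutator `d u d⁻¹ u⁻¹`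
  have hsurj : ∀ w ∈ ⁅V, D i⁆, ∃ u ∈ ⁅V, D i⁆, w = d * u * d⁻¹ * u⁻¹ := by
    let f : ↥⁅V, D i⁆ → ↥⁅V, D i⁆ := fun u =>
      ⟨d * u * d⁻¹ * (u : G)⁻¹, Subgroup.mul_mem _ (hdVi u u.2) (Subgroup.inv_mem _ u.2)⟩
    have hinj : Function.Injective f := by
      intro u u' huu'
      have h1 : d * (u : G) * d⁻¹ * (u : G)⁻¹ = d * (u' : G) * d⁻¹ * (u' : G)⁻¹ :=
        congrArg Subtype.val huu'
      have hA : d * (u : G) * d⁻¹ = d * (u' : G) * d⁻¹ * (u' : G)⁻¹ * u := by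
        rw [← h1]; group
      have h2 : d * ((u' : G)⁻¹ * u) * d⁻¹ = (u' : G)⁻¹ * u := by
        have h3 : d * ((u' : G)⁻¹ * u) * d⁻¹ = (d * (u' : G) * d⁻¹)⁻¹ * (d * (u : G) * d⁻¹) := by
          group
        rw [h3, hA]; group
      have h3 := hdfp _ (Subgroup.mul_mem _ (Subgroup.inv_mem _ u'.2) u.2) h2
      exact Subtype.ext (inv_mul_eq_one.mp h3).symm
    have hsur := Finite.injective_iff_surjective.mp hinj
    intro w hw
    obtain ⟨u, hu⟩ := hsur ⟨w, hw⟩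
    exact ⟨u, u.2, (congrArg Subtype.val hu).symm⟩
  have hQ : ⁅V, D i⁆ ≤ pCoreOf 2 K := by
    have hKV : K ⊓ V ≤ pCoreOf 2 K := by
      apply Cfsg.Agent.Lib.Helper47.le_pCoreOf_of_le_normalizer (S.V2.to_le inf_le_right)
        inf_le_left
      intro k hk
      exact mem_normalizer_inf' (Subgroup.le_normalizer hk) (S.hLV (S.hKL hk))
    intro w hw
    obtain ⟨u, hu, rfl⟩ := hsurj w hw
    apply hKV
    refine Subgroup.mem_inf.mpr ⟨?_, F.comm_le S i hw⟩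
    have huV := F.comm_le S i hu
    have h1 : d * u * d⁻¹ * u⁻¹ = d * (u * d⁻¹ * u⁻¹) := by group
    rw [h1]
    exact K.mul_mem hd (conj_mem_of_mem_normalizer (S.V_le_normalizer huV) (K.inv_mem hd))
  have hU : ⁅V, D i⁆ ≤ omegaCenterOf (pCoreOf 2 K) := by
    intro u hu
    apply mem_omegaCenterOf' (hQ hu)
    · rw [Subgroup.mem_centralizer_iff]
      intro q hq
      have h1 := hRcent q (hQR hq) u hu
      calc q * u = q * u * q⁻¹ * q := by group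
        _ = u * q := by rw [h1]
    · rw [pow_two]; exact h4.sq u hu
  have hW : ⁅V, D i⁆ ≤ wOf K := by
    intro w hw
    obtain ⟨u, hu, rfl⟩ := hsurj w hw
    have h1 : d * u * d⁻¹ * u⁻¹ = ⁅d, u⁆ := by rw [commutatorElement_def]
    rw [h1]
    unfold wOf
    rw [Subgroup.commutator_comm]
    exact Subgroup.commutator_mem_commutator hd (hU hu)
  have hEq : ⁅V, D i⁆ = wOf K :=
    Subgroup.eq_of_le_of_card_ge hW (by rw [S.hW4, F.card4 i])
  have haW : a ∈ Subgroup.normalizer (wOf K : Set G) := by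
    rw [← hEq]; exact mem_normalizer_commutator (S.hLV haL) haN
  exact conj_mem_of_mem_normalizer (S.hNW haW) hd

/-- Elements of `J ∩ C` conjugate odd-order elements of `K` into `K`. -/
theorem Setup.conj_mem_of_mem_C (S : Setup K J L V C QL) {a d : G} (haJ : a ∈ J) (haC : a ∈ C)
    (hd : d ∈ K) (hodd : Odd (orderOf d)) : a * d * a⁻¹ ∈ K := by
  have haQ : a ∈ QL := S.hJCQ (Subgroup.mem_inf.mpr ⟨haJ, haC⟩)
  have hx : d⁻¹ * a * d * a⁻¹ ∈ QL :=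
    QL.mul_mem (conj_inv_mem_of_mem_normalizer (S.hLQ (S.hKL hd)) haQ) (QL.inv_mem haQ)
  obtain ⟨m, hm⟩ := exists_pow_two_eq_one S.hQL2 hx
  exact S.conj_mem_of_two ((le_sup_right : J ≤ K ⊔ J) haJ) hd hodd hm

/-- Elements of `J ∩ E i` conjugate odd-order elements of `K` into `K`. -/
theorem FFData.conj_mem [Finite G] (F : FFData L V C J n E D) (S : Setup K J L V C QL)
    {i : Fin n} {a d : G} (haJ : a ∈ J) (ha : a ∈ E i) (hd : d ∈ K) (hodd : Odd (orderOf d)) :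
    a * d * a⁻¹ ∈ K := by
  have hdL : d ∈ L := S.hKL hd
  have haX : a ∈ K ⊔ J := (le_sup_right : J ≤ K ⊔ J) haJ
  by_cases haD : a ∈ D i
  · obtain ⟨m, hm⟩ := exists_pow_two_eq_one S.hJ2 haJ
    exact S.conj_mem_of_mem_C haJ (F.two_mem S haD hm) hd hodd
  · obtain ⟨j, hE, hD⟩ := F.perm d⁻¹ (L.inv_mem hdL) i
    have hb : d⁻¹ * a * d ∈ E j := by
      rw [← hE]; exact ⟨a, ha, by simp [MulAut.conj_apply]⟩
    have haa := F.sq_mem S ha haD
    have key : d⁻¹ * a * d * a⁻¹ * (d⁻¹ * a * d * a⁻¹) ∈ C → a * d * a⁻¹ ∈ K := by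
      intro hxx
      obtain ⟨m, hm⟩ := S.two_of_sq_mem haJ hdL rfl haa hxx
      exact S.conj_mem_of_two haX hd hodd hm
    by_cases hji : j = i
    · rw [hji] at hE hD hb
      have hbD : d⁻¹ * a * d ∉ D i := by
        intro hcon
        rw [← hD] at hcon
        obtain ⟨g, hg, hge⟩ := hcon
        have h1 : d⁻¹ * g * d = d⁻¹ * a * d := by simpa [MulAut.conj_apply] using hge
        have h2 : g = a := by
          calc g = d * (d⁻¹ * g * d) * d⁻¹ := by group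
            _ = a := by rw [h1]; group
        exact haD (h2 ▸ hg)
      have haD' : a⁻¹ ∉ D i := fun h => haD (by simpa using Subgroup.inv_mem _ h)
      have hxD : d⁻¹ * a * d * a⁻¹ ∈ D i :=
        mul_mem_of_relIndex_two (F.idx2 i) hb (Subgroup.inv_mem _ ha) hbD haD'
      by_cases hxC : d⁻¹ * a * d * a⁻¹ ∈ C
      · exact key (C.mul_mem hxC hxC)
      · have hdN : d ∈ Subgroup.normalizer (D i : Set G) := by
          have h1 : d⁻¹ ∈ Subgroup.normalizer (D i : Set G) :=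
            Subgroup.mem_normalizer_iff_map_conj_eq.mpr hD
          simpa using Subgroup.inv_mem _ h1
        exact F.case2 S haJ ha haD hd hodd hdN hxD hxC
    · apply key
      have hbb : (d⁻¹ * a * d) * (d⁻¹ * a * d) ∈ C := by
        have h1 : (d⁻¹ * a * d) * (d⁻¹ * a * d) = d⁻¹ * (a * a) * d := by group
        rw [h1]; exact conj_inv_mem_of_mem_normalizer (S.hLC hdL) haa
      have hcomm : ⁅(d⁻¹ * a * d)⁻¹, a⁻¹⁆ ∈ C :=
        F.comm j i hji _ (Subgroup.inv_mem _ hb) _ (Subgroup.inv_mem _ ha)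
      have hid : (d⁻¹ * a * d * a⁻¹) * (d⁻¹ * a * d * a⁻¹) =
          ((d⁻¹ * a * d) * (d⁻¹ * a * d)) * ⁅(d⁻¹ * a * d)⁻¹, a⁻¹⁆ * (a * a)⁻¹ := by
        rw [commutatorElement_def]; group
      rw [hid]
      exact C.mul_mem (C.mul_mem hbb hcomm) (C.inv_mem haa)

/-- A subgroup conjugating the odd-order elements of `K` into `K` normalizes `K`. -/
theorem Setup.le_normalizer_of_odd (S : Setup K J L V C QL) {A : Subgroup G}
    (h : ∀ a ∈ A, ∀ d ∈ K, Odd (orderOf d) → a * d * a⁻¹ ∈ K) :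
    A ≤ Subgroup.normalizer (K : Set G) := by
  apply Cfsg.Agent.Lib.Helper53.le_normalizer_of_conj_mem
  intro r hr w hw
  rw [← S.hgen] at hw
  induction hw using Subgroup.closure_induction with
  | mem y hy => exact h r hr y hy.1 hy.2
  | one => simp
  | mul x y _ _ hx hy =>
    have h1 : r * (x * y) * r⁻¹ = (r * x * r⁻¹) * (r * y * r⁻¹) := by group
    rw [h1]; exact Subgroup.mul_mem _ hx hy
  | inv x _ hx =>
    have h1 : r * x⁻¹ * r⁻¹ = (r * x * r⁻¹)⁻¹ := by group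
    rw [h1]; exact Subgroup.inv_mem _ hx

/-- **Abstract core of S2945.** -/
theorem le_normalizer_of_ffdata [Finite G] (F : FFData L V C J n E D)
    (S : Setup K J L V C QL) : J ≤ Subgroup.normalizer (K : Set G) := by
  refine F.gen.trans (sup_le (iSup_le fun i => ?_) ?_)
  · exact S.le_normalizer_of_odd
      (fun a ha d hd hodd => F.conj_mem S (Subgroup.mem_inf.mp ha).1 (Subgroup.mem_inf.mp ha).2
        hd hodd)
  · exact S.le_normalizer_of_odd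
      (fun a ha d hd hodd => S.conj_mem_of_mem_C (Subgroup.mem_inf.mp ha).1
        (Subgroup.mem_inf.mp ha).2 hd hodd)

end FF

end Cfsg.Agent.Lib.Helper33.KS12
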