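import Mathlib
import Cfsg.Statements.S2944
import Cfsg.Statements.S2945
import Cfsg.Agent.Lib.Helper2.KS12.PZ
import Cfsg.Agent.Lib.Helper33.KS12.S2945Abs

/-!
# S2945 core (helper33)

`K ≤ L ∈ jOvergroups T`, `K` subnormal in `⟨K, J(T)⟩`, `K ∈ jComponentsZero (T^g)`  ⟹  `K` is a
`J(T)`-component.  Inputs: the statement S2944 (`N(K) = N(W_K)` and its second part) and the FF
shape of `L` (`FFShape`, package P-FF of the KS12 project).
-/

set_option autoImplicit false

namespace Cfsg.Agent.Lib.Helper33.KS12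

open Cfsg
open Cfsg.Agent.Lib.Helper2.KS12
open scoped commutatorElement

universe u
variable {G : Type u} [Group G]

/-- The FF shape of `L ∈ jOvergroups T`: `V_L ≤ J(T)` and the data `FFData` over `C_L(V_L)`. -/
def FFShape (T L : Subgroup G) : Prop :=
  VL L ≤ thompsonSubgroupOf 2 T ∧
    ∃ (n : ℕ) (E D : Fin n → Subgroup G), FFData L (VL L) (CL L) (thompsonSubgroupOf 2 T) n E D

theorem map_conj_map_conj_inv (T : Subgroup G) (g : G) :
    (T.map (MulAut.conj g).toMonoidHom).map (MulAut.conj g⁻¹).toMonoidHom = T := by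
  rw [Subgroup.map_map]
  have h1 : (MulAut.conj g⁻¹).toMonoidHom.comp (MulAut.conj g).toMonoidHom = MonoidHom.id G := by
    ext x
    simp only [MonoidHom.comp_apply, MulEquiv.coe_toMonoidHom, MulAut.conj_apply,
      MonoidHom.id_apply]
    group
  rw [h1, Subgroup.map_id]

/-- **S2945 from S2944 and the FF shape.** -/
theorem s2945_core [Finite G] (hL : Cfsg.IsCharacteristicTwoType G)
    (hN : ∀ N : Subgroup G, Cfsg.IsTwoLocal N → Group.IsSolvable ↥N)
    (hZ : ∀ S : Sylow 2 G, Subgroup.centralizer (Cfsg.omegaCenterOf (S : Subgroup G) : Set G) ≤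
      Subgroup.normalizer ((S : Subgroup G) : Set G))
    (h2944 : type_of% (@Cfsg.CfsgFrozen.S2944 G _ _ hL hN hZ))
    (hFF : ∀ T L : Subgroup G, IsPGroup 2 T → T ≠ ⊥ → L ∈ jOvergroups T → FFShape T L)
    (T : Subgroup G) (hT : IsPGroup 2 ↥T) (hT1 : T ≠ ⊥) (L : Subgroup G)
    (hLT : L ∈ Cfsg.jOvergroups T) (K : Subgroup G) (hKL : K ≤ L)
    (hKsn : (K.subgroupOf (K ⊔ Cfsg.thompsonSubgroupOf 2 T)).IsSubnormal) (g : G)
    (hKg : K ∈ Cfsg.jComponentsZero (T.map (MulAut.conj g).toMonoidHom)) :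
    Cfsg.IsJComponent T K := by
  have hT' : IsPGroup 2 ↥(T.map (MulAut.conj g).toMonoidHom) := hT.map _
  have hT'1 : T.map (MulAut.conj g).toMonoidHom ≠ ⊥ := by
    intro hcon
    exact hT1 ((Subgroup.map_eq_bot_iff_of_injective T (MulAut.conj g).injective).mp hcon)
  obtain ⟨hNeq, hpart2⟩ := h2944 (T.map (MulAut.conj g).toMonoidHom) hT' hT'1 K hKg
  obtain ⟨hTsyl, hJnot, hCQ⟩ := hLT
  obtain ⟨hVJ, n, E, D, hF⟩ := hFF T L hT hT1 ⟨hTsyl, hJnot, hCQ⟩
  have hJT : thompsonSubgroupOf 2 T ≤ T := Cfsg.Agent.Lib.Helper11.thompsonSubgroupOf_le 2 T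
  have hKcomp := hKg.1
  have hS : Setup K (thompsonSubgroupOf 2 T) L (VL L) (CL L) (pCoreOf 2 L) :=
    { hgen := hKcomp.1
      hW4 := hKcomp.2.2.2.2.1
      hNW := le_of_eq hNeq.symm
      hsn := hKsn
      hKL := hKL
      hJL := hJT.trans hTsyl.1
      hJ2 := hT.to_le hJT
      hVJ := hVJ
      hLV := le_normalizer_VL L
      hVcomm := fun u hu v hv => omegaCenterOf_comm _ hu hv
      hVsq := fun v hv => by
        have h1 := omegaCenterOf_sq _ hv
        rwa [pow_two] at h1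
      hCL := CL_le L
      hCV := fun c hc v hv =>
        (Subgroup.mem_centralizer_iff.mp (CL_le_centralizer L hc) v hv).symm
      hCmem := fun x hx hxv => Subgroup.mem_inf.mpr
        ⟨hx, Subgroup.mem_centralizer_iff.mpr (fun v hv => (hxv v hv).symm)⟩
      hLC := le_normalizer_CL L
      hQL2 := pCoreOf_two_isPGroup L
      hLQ := Cfsg.Agent.Lib.Helper47.le_normalizer_pCoreOf 2 L
      hJCQ := by
        rw [← CL_inf_eq hZ hTsyl hCQ]
        intro x hx
        exact Subgroup.mem_inf.mpr ⟨(Subgroup.mem_inf.mp hx).2, hJT (Subgroup.mem_inf.mp hx).1⟩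
      hcommQ := fun c hc t ht =>
        comm_CL_le hZ hTsyl hCQ (Subgroup.commutator_mem_commutator hc (hJT ht)) }
  have hJK : thompsonSubgroupOf 2 T ≤ Subgroup.normalizer (K : Set G) :=
    le_normalizer_of_ffdata hF hS
  rw [hNeq] at hJK
  have h3 := hpart2 g⁻¹
  rw [map_conj_map_conj_inv] at h3
  exact h3 hJK

end Cfsg.Agent.Lib.Helper33.KS12
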